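import Cfsg.Agent.ThCover66.Main
import Cfsg.Agent.ThRep32.Rep
import Cfsg.Prelude.Def_KGroupFacts

/-!
The Schur multiplier of the Thompson group is trivial, given that the representation is faithful
and the group is finite.
-/

set_option autoImplicit false
set_option maxRecDepth 100000

namespace CfsgLib.ThCover66

open CfsgLib.CosetEnum Cfsg.Spor

/-- the letter of the matrix evaluator -/
def conv (x : ℕ) : ℕ := [0, 0, 1, 1, 2, 2, 3, 3, 4, 4, 5, 6, 7, 8, 9, 10].getD x 10

theorem lets_conv {x : ℕ} (hx : x < 16) : lets xT x = ThRep32.letter (conv x) := by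
  have inv2 : ∀ y : Cfsg.Spor.Th, y * y = 1 → y⁻¹ = y := fun y h => inv_eq_of_mul_eq_one_left h
  have sq : ∀ w ∈ [r_a2, r_b2, r_c2, r_d2, r_e2], gword (lets xT) w = 1 :=
    fun w hw => xT_rel w ((by decide +kernel : ∀ w ∈ [r_a2, r_b2, r_c2, r_d2, r_e2], w ∈ relList) w hw)
  have ha := sq r_a2 (by simp); have hb := sq r_b2 (by simp); have hc := sq r_c2 (by simp)
  have hd := sq r_d2 (by simp); have he := sq r_e2 (by simp)
  simp [gword, lets, r_a2, r_b2, r_c2, r_d2, r_e2, xT] at ha hb hc hd he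
  interval_cases x <;> simp [lets, xT, conv, ThRep32.letter] <;>
    first
    | rfl
    | exact inv2 _ ha | exact inv2 _ hb | exact inv2 _ hc | exact inv2 _ hd | exact inv2 _ he

theorem of_idOK (hinj : Function.Injective ThRep32.rep) {w : List ℕ}
    (hw : w.all (fun x => Nat.blt x 16) = true) (h : ThRep32.idOK (w.map conv) = true) :
    gword (lets xT) w = 1 := by
  have e : gword (lets xT) w = ((w.map conv).map ThRep32.letter).prod := by
    rw [gword, List.map_map]
    congr 1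
    refine List.map_congr_left fun x hx => lets_conv ?_
    simpa [Nat.blt, Nat.ble_eq] using List.all_eq_true.1 hw x hx
  rw [e]
  apply hinj
  rw [map_one]
  exact Units.ext (by rw [ThRep32.rep_prod, ThRep32.prod_one h, Units.val_one])

theorem check0 : ThRep32.idOK (wZ.map conv) = true := by decide +kernel

theorem check1 : ThRep32.idOK ((rv wW ++ rv wG ++ wE1 ++ wG).map conv) = true := by decide +kernel

theorem check2 : ThRep32.idOK ((wN ++ wN ++ wN).map conv) = true := by decide +kernel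

theorem check3 : ThRep32.idOK ((rv wK ++ wW ++ wK ++ rv wW ++ [5, 1]).map conv) = true := by
  decide +kernel

theorem L_ne_bot : Th34.L ≠ ⊥ := fun h =>
  ThRep32.rep_ne_one (Th34.eq_one_of_L ThRep32.rep (h ▸ bot_le))

theorem d_ne_one : Th34.g .d ≠ 1 := by
  intro hd
  apply L_ne_bot
  have R : ∀ w, w ∈ relList → gword (lets xT) w = 1 := fun w hw => xT_rel w hw
  have a2 := R r_a2 (by simp [relList]); have b2 := R r_b2 (by simp [relList])
  have c2 := R r_c2 (by simp [relList]); have e2 := R r_e2 (by simp [relList])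
  have de := R r_de3 (by simp [relList]); have ab := R r_ab3 (by simp [relList])
  have bc := R r_bc3 (by simp [relList]); have acd := R r_acd4 (by simp [relList])
  have sd := R r_sd2 (by simp [relList]); have s7 := R r_s7 (by simp [relList])
  have xd : xT 3 = 1 := hd
  have cube : ∀ y : Cfsg.Spor.Th, y * y = 1 → y * (y * y) = 1 → y = 1 := fun y h h' => by
    rwa [h, mul_one] at h'
  simp [gword, lets, r_a2, r_b2, r_c2, r_e2, r_de3, r_ab3, r_bc3, r_acd4, r_sd2, r_s7, xd] at a2 b2 c2 e2 de ab bc acd sd s7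
  have he : xT 4 = 1 := cube _ e2 de
  have ha : xT 0 = 1 := by
    have h4 : (xT 2)⁻¹ * (xT 2)⁻¹ = 1 := by rw [← mul_inv_rev, c2, inv_one]
    simpa [← mul_assoc, h4, mul_assoc _ (xT 2)⁻¹ (xT 2)⁻¹] using acd
  simp [ha] at ab
  have hb : xT 1 = 1 := cube _ b2 ab
  simp [hb] at bc
  have hc : xT 2 = 1 := cube _ c2 bc
  have hs : xT 5 = 1 := by
    simpa [← mul_assoc, sd, mul_assoc _ (xT 5) (xT 5)] using s7
  rw [eq_bot_iff, Subgroup.map_le_iff_le_comap, Subgroup.closure_le]
  intro z hz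
  simp only [Set.mem_insert_iff, Set.mem_singleton_iff] at hz
  rcases hz with rfl | rfl | rfl | rfl | rfl | rfl
  exacts [ha, hb, hc, xd, he, hs]

theorem facts_of (hinj : Function.Injective ThRep32.rep) : Facts where
  d_ne := d_ne_one
  card_H := ThH99.card_H L_ne_bot
  i0 := of_idOK hinj (by decide +kernel) check0
  i1 := of_idOK hinj (by decide +kernel) check1
  i2 := of_idOK hinj (by decide +kernel) check2
  i3 := of_idOK hinj (by decide +kernel) check3

theorem stem_injective (F : Facts) {E : Type} [Group E] (σ : E →* Cfsg.Spor.Th)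
    (h : Cfsg.IsStemExtension σ) : σ.ker = ⊥ := by
  obtain ⟨hs, hk, hcomm⟩ := h
  obtain ⟨τ, hτ⟩ := exists_section F σ hs hk
  have hστ : ∀ w, σ (τ w) = w := fun w => DFunLike.congr_fun hτ w
  have hle : commutator E ≤ τ.range := by
    rw [commutator_def, Subgroup.commutator_le]
    intro x _ y _
    refine ⟨σ x * σ y * (σ x)⁻¹ * (σ y)⁻¹, ?_⟩
    rw [map_mul τ, map_mul τ, map_mul τ, map_inv τ, map_inv τ, commutatorElement_def]
    have hc : ∀ g : E, (τ (σ g))⁻¹ * g ∈ Subgroup.center E := fun g =>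
      hk (by simp [MonoidHom.mem_ker, hστ])
    obtain ⟨p, hp, hx⟩ : ∃ p ∈ Subgroup.center E, x = τ (σ x) * p :=
      ⟨_, hc x, (mul_inv_cancel_left _ _).symm⟩
    obtain ⟨q, hq, hy⟩ : ∃ q ∈ Subgroup.center E, y = τ (σ y) * q :=
      ⟨_, hc y, (mul_inv_cancel_left _ _).symm⟩
    obtain ⟨X, hX⟩ : ∃ X, τ (σ x) = X := ⟨_, rfl⟩
    obtain ⟨Y, hY⟩ : ∃ Y, τ (σ y) = Y := ⟨_, rfl⟩
    rw [hX] at hx ⊢
    rw [hY] at hy ⊢
    rw [hx, hy]
    symm
    calc X * p * (Y * q) * (X * p)⁻¹ * (Y * q)⁻¹ = X * (p * (Y * q)) * p⁻¹ * X⁻¹ * q⁻¹ * Y⁻¹ := by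
          group
      _ = X * Y * (q * X⁻¹) * q⁻¹ * Y⁻¹ := by rw [← comm_central hp (Y * q)]; group
      _ = X * Y * X⁻¹ * Y⁻¹ := by rw [← comm_central hq X⁻¹]; group
  rw [eq_bot_iff]
  intro z hz
  obtain ⟨w, rfl⟩ := hle (hcomm hz)
  rw [MonoidHom.mem_ker, hστ] at hz
  simp [hz]

/-- The multiplier is trivial. -/
theorem multiplier_trivial [Finite Cfsg.Spor.Th] (hinj : Function.Injective ThRep32.rep) :
    Cfsg.HasCyclicSchurMultiplier Cfsg.Spor.Th 1 := by
  refine ⟨⟨Cfsg.Spor.Th, inferInstance, inferInstance, MonoidHom.id _,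
    ⟨Function.surjective_id, ?_, ?_⟩, ?_⟩, fun Γ _ _ σ h => ⟨1, fun z => ⟨1, ?_⟩⟩⟩
  · intro x hx; rw [MonoidHom.mem_ker] at hx; simp only [MonoidHom.id_apply] at hx; subst hx
    exact one_mem _
  · intro x hx; rw [MonoidHom.mem_ker] at hx; simp only [MonoidHom.id_apply] at hx; subst hx
    exact one_mem _
  · have : Subsingleton (MonoidHom.id Cfsg.Spor.Th).ker := ⟨fun a b => Subtype.ext (by
      rw [MonoidHom.mem_ker.1 a.2 |> (show _ → (a : Cfsg.Spor.Th) = 1 from id),
        MonoidHom.mem_ker.1 b.2 |> (show _ → (b : Cfsg.Spor.Th) = 1 from id)])⟩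
    exact ⟨{ toFun := fun _ => 1, invFun := fun _ => 1,
             left_inv := fun a => Subsingleton.elim _ _,
             right_inv := fun a => Subsingleton.elim _ _, map_mul' := fun _ _ => (one_mul _).symm }⟩
  · have hb := stem_injective (facts_of hinj) σ h
    refine Subtype.ext ?_
    have hz : (z : Γ) ∈ (⊥ : Subgroup Γ) := hb ▸ z.2
    rw [Subgroup.mem_bot] at hz
    simp [hz]

end CfsgLib.ThCover66
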