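import Mathlib

/-!
Exact relations obtained by rescaling lifts in a central extension.
-/

set_option autoImplicit false

namespace CfsgLib.ThCover66

open Subgroup

variable {E T : Type*} [Group E] [Group T]

theorem comm_central {z : E} (hz : z ∈ center E) (x : E) : x * z = z * x :=
  mem_center_iff.1 hz x

/-- central elements can be moved out of a conjugation -/
theorem conj_mul_central {z : E} (hz : z ∈ center E) (g x : E) :
    g⁻¹ * (x * z) * g = g⁻¹ * x * g * z := by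
  rw [← mul_assoc, mul_assoc (g⁻¹ * x), ← comm_central hz g, ← mul_assoc]

theorem conj_central {z : E} (hz : z ∈ center E) (g : E) : g⁻¹ * z * g = z := by
  rw [mul_assoc, ← comm_central hz g, inv_mul_cancel_left]

/-- conjugation only depends on the image -/
theorem conj_eq (σ : E →* T) (hk : σ.ker ≤ center E) {g g' : E} (h : σ g = σ g') (x : E) :
    g⁻¹ * x * g = g'⁻¹ * x * g' := by
  have hm : g⁻¹ * g' ∈ center E := hk (by simp [MonoidHom.mem_ker, h])
  calc g⁻¹ * x * g = (g⁻¹ * g')⁻¹ * (g⁻¹ * x * g) * (g⁻¹ * g') := (conj_central' hm _).symm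
    _ = g'⁻¹ * x * g' := by group
where
  conj_central' {z : E} (hz : z ∈ center E) (x : E) : z⁻¹ * x * z = x := by
    rw [mul_assoc, comm_central hz x, inv_mul_cancel_left]

/-- seven conjugates forming a Fano plane: the square of each of them is trivial -/
theorem fano (e s : E) (hes : e⁻¹ * s⁻¹ * e * s = (s ^ 3)⁻¹ * e * s ^ 3)
    (hz : e * e ∈ center E) : e * e = 1 := by
  obtain ⟨φ, hφ⟩ : ∃ φ : E → E, ∀ y, φ y = s⁻¹ * y * s := ⟨_, fun _ => rfl⟩
  have hφm : ∀ x y, φ (x * y) = φ x * φ y := fun x y => by simp only [hφ]; group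
  have hφz : ∀ z ∈ center E, φ z = z := fun z hz => by rw [hφ, conj_central hz]
  have inj : Function.Injective φ := fun p q h => by simpa [hφ] using h
  obtain ⟨x1, hx1⟩ : ∃ y, φ e = y := ⟨_, rfl⟩
  obtain ⟨x2, hx2⟩ : ∃ y, φ x1 = y := ⟨_, rfl⟩
  obtain ⟨x3, hx3⟩ : ∃ y, φ x2 = y := ⟨_, rfl⟩
  obtain ⟨z, hzdef⟩ : ∃ z, e * e = z := ⟨_, rfl⟩
  rw [hzdef] at hz ⊢
  have hzi : z⁻¹ ∈ center E := inv_mem hz
  have hc : ∀ x, x * z⁻¹ = z⁻¹ * x := comm_central hzi
  have h1 : x1 = e * x3 := by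
    have : x3 = (s ^ 3)⁻¹ * e * s ^ 3 := by
      rw [← hx3, ← hx2, ← hx1, hφ, hφ, hφ]; simp only [pow_succ, pow_zero, one_mul]; group
    rw [this, ← hes, ← hx1, hφ]
    group
  have s1 : x1 * x1 = z := by rw [← hx1, ← hφm, hzdef, hφz z hz]
  have s2 : x2 * x2 = z := by rw [← hx2, ← hφm, s1, hφz z hz]
  have s3 : x3 * x3 = z := by rw [← hx3, ← hφm, s2, hφz z hz]
  have e30 : x3 * e = z⁻¹ * e * x3 := by
    have h : e * x3 * (e * x3) = z := by rw [← h1]; exact s1
    have h0 : e⁻¹ = z⁻¹ * e := by rw [← hzdef]; group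
    have h3 : x3⁻¹ = z⁻¹ * x3 := by rw [← s3]; group
    calc x3 * e = e⁻¹ * (e * x3 * (e * x3)) * x3⁻¹ := by group
      _ = e⁻¹ * z * x3⁻¹ := by rw [h]
      _ = z⁻¹ * e * z * (z⁻¹ * x3) := by rw [h0, h3]
      _ = z⁻¹ * e * x3 := by group
  have e10 : x1 * e = z⁻¹ * e * x1 := by
    rw [h1, mul_assoc e x3, e30, ← mul_assoc e, ← mul_assoc e, hc e]
    group
  have e31 : x3 * x1 = z⁻¹ * x1 * x3 := by
    rw [h1, ← mul_assoc, e30]; group
  have e20 : x2 * e = z⁻¹ * e * x2 := by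
    apply inj
    rw [hφm, hφm, hφm, hx3, hx1, hφz _ hzi]
    exact e31
  have e21 : x2 * x1 = z⁻¹ * x1 * x2 := by
    have := congrArg φ e10
    rwa [hφm, hφm, hφm, hx2, hx1, hφz _ hzi] at this
  have e32 : x3 * x2 = z⁻¹ * x2 * x3 := by
    have := congrArg φ e21
    rwa [hφm, hφm, hφm, hx3, hx2, hφz _ hzi] at this
  have e23 : x2 * x3 = z * x3 * x2 := by
    rw [mul_assoc, e32]; group
  have key : x2 * x1 = x1 * x2 := by
    rw [h1, ← mul_assoc, e20, mul_assoc _ x2 x3, e23, ← mul_assoc, ← mul_assoc,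
      mul_assoc z⁻¹ e z, comm_central hz e]
    group
  have h : z⁻¹ * (x1 * x2) = 1 * (x1 * x2) := by rw [one_mul, ← mul_assoc, ← e21, key]
  exact inv_eq_one.mp (mul_right_cancel h)

theorem braid_image {x y : T} (hx : x * x = 1) (hy : y * y = 1)
    (h : (x * y) * (x * y) * (x * y) = 1) : (x * y)⁻¹ * y * (x * y) = x := by
  have h1 : (x * y)⁻¹ = x * y * (x * y) := inv_eq_of_mul_eq_one_left h
  rw [h1, show x * y * (x * y) * y * (x * y) = x * y * x * (y * y) * x * y by group, hy,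
    mul_one, show x * y * x * x * y = x * y * (x * x) * y by group, hx, mul_one, mul_assoc, hy,
    mul_one]

/-- the braid relation for a conjugate lift -/
theorem braid_lift (σ : E →* T) (hk : σ.ker ≤ center E) (b0 c : E)
    (hb : σ ((b0 * c)⁻¹ * c * (b0 * c)) = σ b0) (hc : c * c ∈ center E) :
    let b := (b0 * c)⁻¹ * c * (b0 * c)
    b * c * b = c * b * c ∧ b * b = c * c := by
  intro b
  have hb' : (b * c)⁻¹ * c * (b * c) = b :=
    conj_eq σ hk (by rw [map_mul σ b c, map_mul σ b0 c, show σ b = σ b0 from hb]) c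
  constructor
  · calc b * c * b = b * c * ((b * c)⁻¹ * c * (b * c)) := by rw [hb']
      _ = c * b * c := by group
  · calc b * b = (b0 * c)⁻¹ * (c * c) * (b0 * c) := by simp only [b]; group
      _ = c * c := conj_central hc _

/-- an element of order three times an involution -/
theorem de3 {d e : E} (he : e * e = 1) (hd : d = (d * e)⁻¹ * e * (d * e)) :
    d * d = 1 ∧ d * e * (d * e) * (d * e) = 1 := by
  have hd2 : d * d = 1 := by
    calc d * d = ((d * e)⁻¹ * e * (d * e)) * ((d * e)⁻¹ * e * (d * e)) := by rw [← hd]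
      _ = (d * e)⁻¹ * (e * e) * (d * e) := by group
      _ = 1 := by rw [he]; group
  have hdi : d⁻¹ = d := inv_eq_of_mul_eq_one_left hd2
  have hei : e⁻¹ = e := inv_eq_of_mul_eq_one_left he
  refine ⟨hd2, ?_⟩
  have h : d = e * d * e * d * e := by
    conv_lhs => rw [hd, mul_inv_rev, hdi, hei]
    group
  calc d * e * (d * e) * (d * e) = d * (e * d * e * d * e) := by group
    _ = 1 := by rw [← h, hd2]

/-- an element of order three centralises an involution modulo the centre only if exactly -/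
theorem comm_of_three {x t η : E} (hη : η ∈ center E) (h : t⁻¹ * x * t = x * η)
    (hx : x * x = 1) (ht : t * t * t = 1) : η = 1 := by
  have h2 : η * η = 1 := by
    have : (t⁻¹ * x * t) * (t⁻¹ * x * t) = 1 := by
      rw [show t⁻¹ * x * t * (t⁻¹ * x * t) = t⁻¹ * (x * x) * t by group, hx]; group
    rw [h, mul_assoc, ← mul_assoc η, ← comm_central hη x, ← mul_assoc, ← mul_assoc, hx,
      one_mul] at this
    exact this
  have h3 : η * η * η = 1 := by
    have e1 : t⁻¹ * (t⁻¹ * (t⁻¹ * x * t) * t) * t = x * η * η * η := by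
      rw [h, conj_mul_central hη, h, conj_mul_central hη, conj_mul_central hη, h]
    rw [show t⁻¹ * (t⁻¹ * (t⁻¹ * x * t) * t) * t = (t * t * t)⁻¹ * x * (t * t * t) by group,
      ht, inv_one, one_mul, mul_one, mul_assoc, mul_assoc] at e1
    rw [mul_assoc]
    exact (mul_eq_left.mp e1.symm)
  rwa [h2, one_mul] at h3

/-- `s` centralises an involution centralised by `t`, when `s^t = s²` -/
theorem comm_of_sq {x s t η : E} (hη : η ∈ center E) (h : s⁻¹ * x * s = x * η)
    (hx : x * x = 1) (htx : t⁻¹ * x * t = x) (hst : t⁻¹ * s * t = s * s) : η = 1 := by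
  have h2 : η * η = 1 := by
    have : (s⁻¹ * x * s) * (s⁻¹ * x * s) = 1 := by
      rw [show s⁻¹ * x * s * (s⁻¹ * x * s) = s⁻¹ * (x * x) * s by group, hx]; group
    rw [h, mul_assoc, ← mul_assoc η, ← comm_central hη x, ← mul_assoc, ← mul_assoc, hx,
      one_mul] at this
    exact this
  have e1 : t⁻¹ * (s⁻¹ * x * s) * t = x * η := by rw [h, conj_mul_central hη, htx]
  rw [show t⁻¹ * (s⁻¹ * x * s) * t = (t⁻¹ * s * t)⁻¹ * (t⁻¹ * x * t) * (t⁻¹ * s * t) by group,
    hst, htx, show (s * s)⁻¹ * x * (s * s) = s⁻¹ * (s⁻¹ * x * s) * s by group, h,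
    conj_mul_central hη, h, mul_assoc, h2, mul_one] at e1
  exact mul_eq_left.mp e1.symm

/-- the square of `s d` -/
theorem sd_square {d s t γ : E} (hγ : γ ∈ center E) (h : d * s * d = s⁻¹ * γ) (hd : d * d = 1)
    (hdt : t⁻¹ * d * t = d) (hst : t⁻¹ * s * t = s * s) : γ = 1 := by
  have e1 : t⁻¹ * (d * s * d) * t = (d * s * d) * (d * s * d) := by
    rw [show t⁻¹ * (d * s * d) * t = (t⁻¹ * d * t) * (t⁻¹ * s * t) * (t⁻¹ * d * t) by group,
      hst, hdt, show d * s * d * (d * s * d) = d * s * (d * d) * s * d by group, hd, mul_one,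
      mul_assoc d s s]
  rw [h, conj_mul_central hγ, show t⁻¹ * s⁻¹ * t = (t⁻¹ * s * t)⁻¹ by group, hst,
    show s⁻¹ * γ * (s⁻¹ * γ) = s⁻¹ * (γ * s⁻¹) * γ by group, ← comm_central hγ s⁻¹,
    show s⁻¹ * (s⁻¹ * γ) * γ = (s * s)⁻¹ * γ * γ by group] at e1
  exact mul_eq_left.mp e1.symm

/-- the seventh power -/
theorem seven {s t : E} (hp : s ^ 7 ∈ center E) (hst : t⁻¹ * s * t = s * s) : s ^ 7 = 1 := by
  have h : t⁻¹ * s ^ 7 * t = s ^ 7 * s ^ 7 := by
    rw [show t⁻¹ * s ^ 7 * t = (t⁻¹ * s * t) ^ 7 by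
      simpa using (conj_pow (i := 7) (a := t⁻¹) (b := s)).symm, hst, ← pow_two, ← pow_mul, ← pow_add]
  rw [conj_central hp] at h
  exact mul_eq_left.mp h.symm

end CfsgLib.ThCover66
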