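import Cfsg.Agent.CosetEnum.Upper

/-!
Reading membership in a subgroup off a checked coset table, and words in renamed letters.
-/

set_option autoImplicit false

namespace CfsgLib.ThCover66

open CfsgLib.CosetEnum

variable {E : Type*} [Group E]

/-- the values of the letters -/
def lets (v : ℕ → E) (x : ℕ) : E := bif x % 2 == 0 then v (x / 2) else (v (x / 2))⁻¹

theorem lets_inv (v : ℕ → E) (x : ℕ) : lets v (x ^^^ 1) = (lets v x)⁻¹ := by
  have h2 : (x ^^^ 1) / 2 = x / 2 := by
    rw [← Nat.shiftRight_one, Nat.shiftRight_xor_distrib, Nat.shiftRight_one, Nat.shiftRight_one]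
    simp
  rcases Nat.mod_two_eq_zero_or_one x with h | h
  · have : (x ^^^ 1) % 2 = 1 := by rw [Nat.xor_mod_two_eq]; omega
    simp [lets, h, this, h2]
  · have : (x ^^^ 1) % 2 = 0 := by rw [Nat.xor_mod_two_eq]; omega
    simp [lets, h, this, h2]

/-- the global letter of a local one, for a table in the generators `sel` -/
def emb (sel : List ℕ) (x : ℕ) : ℕ := 2 * sel.getD (x / 2) 8 + x % 2

theorem lets_emb (v : ℕ → E) (sel : List ℕ) (x : ℕ) :
    lets v (emb sel x) = lets (fun i => v (sel.getD i 8)) x := by
  have h1 : emb sel x % 2 = x % 2 := by unfold emb; omega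
  have h2 : emb sel x / 2 = sel.getD (x / 2) 8 := by unfold emb; omega
  simp [lets, h1, h2]

theorem gword_emb (v : ℕ → E) (sel : List ℕ) (w : List ℕ) :
    gword (lets fun i => v (sel.getD i 8)) w = gword (lets v) (w.map (emb sel)) := by
  induction w with
  | nil => rfl
  | cons x w ih => rw [List.map_cons, gword_cons, gword_cons, ih, lets_emb]

theorem gword_app (φ : ℕ → E) (p q : List ℕ) : gword φ (p ++ q) = gword φ p * gword φ q := by
  simp [gword, List.map_append, List.prod_append]

/-- the formal inverse of a word -/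
def rv (w : List ℕ) : List ℕ := w.reverse.map fun x => x ^^^ 1

theorem gword_rv (v : ℕ → E) (w : List ℕ) : gword (lets v) (rv w) = (gword (lets v) w)⁻¹ :=
  gword_inverse _ _ (lets_inv v) w

/-- the freely reduced word -/
def nf (w : List ℕ) : List ℕ := cancel (fun x => x ^^^ 1) w

theorem gword_nf (v : ℕ → E) (w : List ℕ) : gword (lets v) (nf w) = gword (lets v) w := by
  induction w with
  | nil => rfl
  | cons x xs ih =>
    show gword (lets v) (cancel _ (x :: xs)) = _
    rw [cancel, gword_cons, ← ih]
    unfold nf
    split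
    · rename_i hc
      rw [hc, gword_cons, gword_nil]
    · rename_i y ys hc
      rw [hc, gword_cons]
      cases hy : (y == x ^^^ 1) with
      | true =>
        rw [cond_true, eq_of_beq hy, lets_inv, mul_inv_cancel_left]
      | false => rw [cond_false, gword_cons, gword_cons]

/-- the commutator of a word with a positive letter -/
def cmW (w : List ℕ) (i : ℕ) : List ℕ := rv w ++ [2 * i + 1] ++ w ++ [2 * i]

theorem gword_cmW (v : ℕ → E) (w : List ℕ) (i : ℕ)
    (hc : gword (lets v) w ∈ Subgroup.center E) : gword (lets v) (cmW w i) = 1 := by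
  have h1 : gword (lets v) [2 * i] = v i := by simp [gword, lets]
  have h2 : gword (lets v) [2 * i + 1] = (v i)⁻¹ := by
    have : (2 * i + 1) / 2 = i := by omega
    simp [gword, lets, this]
  rw [cmW, gword_app, gword_app, gword_app, gword_rv, h1, h2, mul_assoc _ (gword (lets v) w),
    ← Subgroup.mem_center_iff.1 hc (v i)]
  group

/-- the relators of a table: exact words and central words commuted with the generators in `cg` -/
def tableRels (exact cen : List (List ℕ)) (cg : List ℕ) : List (List ℕ) :=
  exact.map nf ++ cen.flatMap fun w => cg.map fun i => nf (cmW w i)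

theorem tableRels_one (v : ℕ → E) {exact cen : List (List ℕ)} {cg : List ℕ}
    (hx : ∀ w ∈ exact, gword (lets v) w = 1)
    (hc : ∀ w ∈ cen, gword (lets v) w ∈ Subgroup.center E) :
    ∀ w ∈ tableRels exact cen cg, gword (lets v) w = 1 := by
  intro w hw
  simp only [tableRels, List.mem_append, List.mem_map, List.mem_flatMap] at hw
  rcases hw with ⟨p, hp, rfl⟩ | ⟨p, hp, i, -, rfl⟩
  · rw [gword_nf, hx p hp]
  · rw [gword_nf, gword_cmW v p i (hc p hp)]

/-- the words of a certificate are among the given relators up to inversion -/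
def wordsOK (words : List (List ℕ)) (nr : ℕ) (sel : List ℕ) (rels : List (List ℕ)) : Bool :=
  (words.take nr).all fun w =>
    rels.contains (w.map (emb sel)) || rels.contains (rv (w.map (emb sel)))

/-- The word `w` in the local letters lies in `H` if it fixes the first point of the table. -/
theorem mem_of_table {C : CertData} {N : ℕ} (hN : FactsChecked C.ep C.iv C.words C.nr N)
    (h0 : C.node 0 = 0) (hn : 0 < C.n)
    (hrow : ∀ i < C.n, checkRow C.ep C.iv N C.L C.node C.T C.tf C.n i = true)
    (hiv : ∀ x, C.iv x = x ^^^ 1) (v : ℕ → E) (sel : List ℕ) (rels : List (List ℕ))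
    (hok : wordsOK C.words C.nr sel rels = true) (hrels : ∀ w ∈ rels, gword (lets v) w = 1)
    (H : Subgroup E) (hsub : ∀ w ∈ C.words.drop C.nr, gword (lets v) (w.map (emb sel)) ∈ H)
    (w : List ℕ) (hw : ∀ x ∈ w, x < C.L) (hfix : runT C.T C.L w 0 = 0) :
    gword (lets v) (w.map (emb sel)) ∈ H := by
  set g := lets fun i => v (sel.getD i 8) with hgdef
  have hg : ∀ x, g (C.iv x) = (g x)⁻¹ := fun x => by rw [hiv]; exact lets_inv _ x
  have hrel : ∀ (k : ℕ) (w : List ℕ), C.words[k]? = some w → k < C.nr → gword g w = 1 := by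
    intro k u hk hlt
    have hmem : u ∈ C.words.take C.nr :=
      List.mem_of_getElem? (i := k) (by rw [List.getElem?_take, if_pos hlt, hk])
    have h := List.all_eq_true.1 hok u hmem
    rw [hgdef, gword_emb]
    rcases (Bool.or_eq_true _ _).mp h with h | h
    · exact hrels _ (List.contains_iff_mem.1 h)
    · have := hrels _ (List.contains_iff_mem.1 h)
      rwa [gword_rv, inv_eq_one] at this
  have hs : ∀ (k : ℕ) (w : List ℕ), C.words[k]? = some w → gword g w ∈ H := by
    intro k u hk
    rcases Nat.lt_or_ge k C.nr with hlt | hge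
    · rw [hrel k u hk hlt]; exact one_mem H
    · rw [hgdef, gword_emb]
      refine hsub u (List.mem_of_getElem? (i := k - C.nr) ?_)
      rw [List.getElem?_drop, show C.nr + (k - C.nr) = k by omega, hk]
  let M := cosetModel H g hg hrel hs
  have hrun : ∀ (u : List ℕ), (∀ x ∈ u, x < C.L) → ∀ i < C.n,
      (gword g u)⁻¹ • M.phi C.ep (C.node i) = M.phi C.ep (C.node (runT C.T C.L u i)) := by
    intro u
    induction u with
    | nil => intro _ i _; simp [gword_nil, runT_nil]
    | cons x u ih =>
      intro hu i hi
      obtain ⟨hT, he⟩ := M.checkRow_sound (hN.good M) (hrow i hi) (hu x (by simp))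
      rw [runT_cons, ← ih (fun y hy => hu y (by simp [hy])) _ hT, gword_cons, mul_inv_rev, mul_smul]
      exact congrArg _ he
  have h := hrun w hw 0 hn
  rw [hfix, h0, M.phi_zero] at h
  change (gword g w)⁻¹ • ((1 : E) : E ⧸ H) = ((1 : E) : E ⧸ H) at h
  rw [MulAction.Quotient.smul_coe, QuotientGroup.eq] at h
  rw [← gword_emb]
  simpa [hgdef] using h

end CfsgLib.ThCover66
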