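import Cfsg.Agent.ThCover66.Algebra
import Cfsg.Agent.ThCover66.Table
import Cfsg.Agent.ThCover66.Words

/-!
Lifts of the generators to a central extension in which many relators hold exactly.
-/

set_option autoImplicit false

namespace CfsgLib.ThCover66

open CfsgLib.CosetEnum Subgroup

variable {E T : Type*} [Group E] [Group T]

/-- eight values as a function -/
def vec (a b c d e s t u : E) : ℕ → E := fun i => [a, b, c, d, e, s, t, u].getD i 1

/-- the scaling relator for `c` -/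
def wX : List ℕ := r_acd4 ++ r_c2 ++ r_c2
/-- equal squares of `a`, `b` -/
def w_ab : List ℕ := r_a2 ++ rv r_b2
/-- equal squares of `b`, `c` -/
def w_bc : List ℕ := r_b2 ++ rv r_c2
/-- the scaling relator for `u` -/
def wCn : List ℕ := relC ++ r_u2
/-- the quotient of two central values -/
def wk : List ℕ := r_u2 ++ rv r_ue

/-- the relators holding by the choice of lifts -/
def stage1 : List (List ℕ) :=
  [r_d2, r_e2, r_de3, r_abn, r_bcn, wX, w_ab, w_bc, r_es, r_st, r_t3, r_tu, wCn, r_sd2, r_s7,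
    r_td, r_te]

theorem map_lets (σ : E →* T) (v : ℕ → E) (x : ℕ → T) (h : ∀ i, σ (v i) = x i) (w : List ℕ) :
    σ (gword (lets v) w) = gword (lets x) w := by
  rw [gword_map]
  congr 1
  funext i
  unfold lets
  cases i % 2 == 0 <;> simp [h]

theorem central_of (σ : E →* T) (hk : σ.ker ≤ center E) (v : ℕ → E) (x : ℕ → T)
    (h : ∀ i, σ (v i) = x i) {w : List ℕ} (hw : gword (lets x) w = 1) :
    gword (lets v) w ∈ center E :=
  hk (by rw [MonoidHom.mem_ker, map_lets σ v x h, hw])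

theorem exists_lift (σ : E →* T) (hs : Function.Surjective σ) (hk : σ.ker ≤ center E)
    (x : ℕ → T) (hx : ∀ i, 8 ≤ i → x i = 1)
    (hT : ∀ w ∈ relList, gword (lets x) w = 1) :
    ∃ v : ℕ → E, (∀ i, σ (v i) = x i) ∧ ∀ w ∈ stage1, gword (lets v) w = 1 := by
  obtain ⟨a0, ha0⟩ := hs (x 0)
  obtain ⟨b0, hb0⟩ := hs (x 1)
  obtain ⟨c0, hc0⟩ := hs (x 2)
  obtain ⟨d0, hd0⟩ := hs (x 3)
  obtain ⟨e0, he0⟩ := hs (x 4)
  obtain ⟨s0, hs0⟩ := hs (x 5)
  obtain ⟨t0, ht0⟩ := hs (x 6)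
  obtain ⟨u0, hu0⟩ := hs (x 7)
  have R : ∀ w, w ∈ relList → gword (lets x) w = 1 := hT
  have cen : ∀ y : E, σ y = 1 → y ∈ center E := fun y hy => hk hy
  -- e: the relation with s
  have hz : e0⁻¹ * s0⁻¹ * e0 * s0 * ((s0 ^ 3)⁻¹ * e0 * s0 ^ 3)⁻¹ ∈ center E := by
    apply cen
    simpa [gword, lets, r_es, pow_succ, mul_assoc, hs0, he0] using R r_es (by simp [relList])
  set z := e0⁻¹ * s0⁻¹ * e0 * s0 * ((s0 ^ 3)⁻¹ * e0 * s0 ^ 3)⁻¹ with hzdef
  have σe : σ (e0 * z) = x 4 := by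
    rw [map_mul, he0]
    have : σ z = 1 := by
      simpa [gword, lets, r_es, pow_succ, mul_assoc, hs0, he0, hzdef] using
        R r_es (by simp [relList])
    rw [this, mul_one]
  set e := e0 * z with hedef
  have hes : e⁻¹ * s0⁻¹ * e * s0 = (s0 ^ 3)⁻¹ * e * s0 ^ 3 := by
    rw [mul_assoc e⁻¹ s0⁻¹, mul_assoc e⁻¹, hedef, conj_mul_central hz (s0 ^ 3), conj_mul_central hz,
      comm_central hz (s0⁻¹ * e0 * s0), mul_inv_rev, mul_assoc z⁻¹ e0⁻¹, ← mul_assoc e0⁻¹,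
      comm_central hz e0⁻¹, mul_assoc z e0⁻¹, inv_mul_cancel_left, comm_central hz, hzdef]
    group
  -- s: the relation with t
  have hσ2 : σ (t0⁻¹ * s0 * t0 * (s0 * s0)⁻¹) = 1 := by
    simpa [gword, lets, r_st, mul_assoc, hs0, ht0] using R r_st (by simp [relList])
  set z' := t0⁻¹ * s0 * t0 * (s0 * s0)⁻¹ with hz'def
  have hz' : z' ∈ center E := cen _ hσ2
  set s := s0 * z' with hsdef
  have σs : σ s = x 5 := by rw [hsdef, map_mul, hs0, hσ2, mul_one]
  have hst0 : t0⁻¹ * s * t0 = s * s := by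
    have h : t0⁻¹ * s0 * t0 = s0 * s0 * z' := by
      rw [comm_central hz' (s0 * s0), hz'def]; group
    rw [hsdef, conj_mul_central hz', h, mul_assoc s0 z' (s0 * z'), ← mul_assoc z' s0,
      ← comm_central hz' s0]
    group
  have σs0 : σ s = σ s0 := by rw [σs, hs0]
  have hes' : e⁻¹ * s⁻¹ * e * s = (s ^ 3)⁻¹ * e * s ^ 3 := by
    rw [conj_eq σ hk (show σ (s ^ 3) = σ (s0 ^ 3) by rw [map_pow, map_pow, σs0]) e, ← hes,
      mul_assoc e⁻¹ s⁻¹, mul_assoc e⁻¹, mul_assoc s⁻¹ e s, mul_assoc e⁻¹ s0⁻¹,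
      mul_assoc e⁻¹ _ s0, ← mul_assoc s⁻¹, conj_eq σ hk σs0 e]
  have he2c : e * e ∈ center E := by
    apply cen
    simpa [gword, lets, r_e2, σe] using R r_e2 (by simp [relList])
  have he2 : e * e = 1 := fano e s hes' he2c
  -- d
  have xd : (x 3 * x 4)⁻¹ * x 4 * (x 3 * x 4) = x 3 := by
    apply braid_image
    · simpa [gword, lets, r_d2] using R r_d2 (by simp [relList])
    · simpa [gword, lets, r_e2] using R r_e2 (by simp [relList])
    · simpa [gword, lets, r_de3, mul_assoc] using R r_de3 (by simp [relList])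
  set d := (d0 * e)⁻¹ * e * (d0 * e) with hddef
  have σd : σ d = x 3 := by simp only [hddef, map_mul, map_inv, hd0, σe, xd]
  have hd : d = (d * e)⁻¹ * e * (d * e) :=
    conj_eq σ hk (show σ (d0 * e) = σ (d * e) by rw [map_mul σ d0 e, map_mul σ d e, σd, hd0]) e
  obtain ⟨hd2, hde⟩ := de3 he2 hd
  -- t
  have σp : σ (t0 * t0 * t0) = 1 := by
    simpa [gword, lets, r_t3, mul_assoc, ht0] using R r_t3 (by simp [relList])
  have σq : σ (u0⁻¹ * t0 * u0 * t0) = 1 := by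
    simpa [gword, lets, r_tu, mul_assoc, ht0, hu0] using R r_tu (by simp [relList])
  set p := t0 * t0 * t0 with hpdef
  set q := u0⁻¹ * t0 * u0 * t0 with hqdef
  have hpc : p ∈ center E := cen _ σp
  have hqc : q ∈ center E := cen _ σq
  have hpq : p * p = q * q * q := by
    have e1 : u0⁻¹ * t0 * u0 = t0⁻¹ * q := by
      rw [comm_central hqc t0⁻¹, hqdef]; group
    have e2 : u0⁻¹ * p * u0 = t0⁻¹ * q * (t0⁻¹ * q) * (t0⁻¹ * q) := by
      rw [← e1, hpdef]; group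
    have cq : ∀ y, Commute q y := fun y => (comm_central hqc y).symm
    rw [conj_central hpc, show t0⁻¹ * q * (t0⁻¹ * q) * (t0⁻¹ * q) =
      t0⁻¹ * (q * t0⁻¹) * (q * t0⁻¹) * q by group, (cq t0⁻¹).eq,
      show t0⁻¹ * (t0⁻¹ * q) * (t0⁻¹ * q) * q = t0⁻¹ * t0⁻¹ * (q * t0⁻¹) * (q * q) by group,
      (cq t0⁻¹).eq, show t0⁻¹ * t0⁻¹ * (t0⁻¹ * q) * (q * q) = (t0 * t0 * t0)⁻¹ * (q * q * q) by
        group] at e2
    conv_lhs => arg 2; rw [e2]
    rw [← hpdef]; group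
  set l := q * p⁻¹ with hldef
  have hlc : l ∈ center E := mul_mem hqc (inv_mem hpc)
  have cl : ∀ y, Commute l y := fun y => (comm_central hlc y).symm
  set t := t0 * l with htdef
  have σl : σ l = 1 := by rw [hldef, map_mul, map_inv, σq, σp]; simp
  have σt : σ t = x 6 := by rw [htdef, map_mul, ht0, σl, mul_one]
  have ht3 : t * t * t = 1 := by
    have e1 : t * t * t = p * (l * l * l) := by
      rw [htdef, hpdef, show t0 * l * (t0 * l) * (t0 * l) = t0 * (l * t0) * (l * t0) * l by group,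
        (cl t0).eq, show t0 * (t0 * l) * (t0 * l) * l = t0 * t0 * (l * t0) * (l * l) by group,
        (cl t0).eq]
      group
    have cp : Commute q p⁻¹ := (comm_central (inv_mem hpc) q)
    rw [e1, hldef, show q * p⁻¹ * (q * p⁻¹) * (q * p⁻¹) = q * (p⁻¹ * q) * (p⁻¹ * q) * p⁻¹ by group,
      ← cp.eq, show q * (q * p⁻¹) * (q * p⁻¹) * p⁻¹ = q * q * (p⁻¹ * q) * (p⁻¹ * p⁻¹) by group,
      ← cp.eq, show q * q * (q * p⁻¹) * (p⁻¹ * p⁻¹) = q * q * q * p⁻¹ * p⁻¹ * p⁻¹ by group, ← hpq]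
    group
  have htu : u0⁻¹ * t * u0 * t = 1 := by
    rw [htdef, conj_mul_central hlc, show u0⁻¹ * t0 * u0 * l * (t0 * l) =
      u0⁻¹ * t0 * u0 * (l * t0) * l by group, (cl t0).eq, ← mul_assoc _ t0 l, ← hqdef, hldef]
    have cp : Commute q p⁻¹ := comm_central (inv_mem hpc) q
    rw [show q * (q * p⁻¹) * (q * p⁻¹) = q * q * (p⁻¹ * q) * p⁻¹ by group, ← cp.eq,
      show q * q * (q * p⁻¹) * p⁻¹ = q * q * q * p⁻¹ * p⁻¹ by group, ← hpq]
    group
  have σt0 : σ t = σ t0 := by rw [σt, ht0]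
  have hst : t⁻¹ * s * t = s * s := by rw [conj_eq σ hk σt0 s, hst0]
  -- td te sd2 s7
  have cη : ∀ y, σ (y⁻¹ * (t⁻¹ * y * t)) = 1 → y * y = 1 → t⁻¹ * y * t = y := fun y hy hy2 => by
    have h : t⁻¹ * y * t = y * (y⁻¹ * (t⁻¹ * y * t)) := by group
    rw [h, comm_of_three (cen _ hy) h hy2 ht3, mul_one]
  have Rtd : (x 3)⁻¹ * ((x 6)⁻¹ * x 3 * x 6) = 1 := by
    have h := R r_td (by simp [relList])
    simp [gword, lets, r_td, ← mul_assoc] at h
    rw [show (x 6)⁻¹ * x 3 * x 6 = ((x 6)⁻¹ * (x 3)⁻¹ * x 6)⁻¹ by group,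
      mul_eq_one_iff_eq_inv.mp h, inv_inv, inv_mul_cancel]
  have htd : t⁻¹ * d * t = d := cη d (by simp only [map_mul, map_inv, σd, σt, Rtd]) hd2
  have Rte : (x 4)⁻¹ * ((x 6)⁻¹ * x 4 * x 6) = 1 := by
    have h := R r_te (by simp [relList])
    simp [gword, lets, r_te, ← mul_assoc] at h
    rw [show (x 6)⁻¹ * x 4 * x 6 = ((x 6)⁻¹ * (x 4)⁻¹ * x 6)⁻¹ by group,
      mul_eq_one_iff_eq_inv.mp h, inv_inv, inv_mul_cancel]
  have hte : t⁻¹ * e * t = e := cη e (by simp only [map_mul, map_inv, σe, σt, Rte]) he2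
  have hsd : s * d * (s * d) = 1 := by
    have hγ : σ (s * d * (s * d)) = 1 := by
      simpa [gword, lets, r_sd2, mul_assoc, σs, σd] using R r_sd2 (by simp [relList])
    exact sd_square (cen _ hγ) (by group) hd2 htd hst
  have hs7 : s ^ 7 = 1 := seven (cen _ (by
    simpa [gword, lets, r_s7, pow_succ, mul_assoc, σs] using R r_s7 (by simp [relList]))) hst
  -- c, b, a
  have xb : (x 1 * x 2)⁻¹ * x 2 * (x 1 * x 2) = x 1 := by
    apply braid_image
    · simpa [gword, lets, r_b2] using R r_b2 (by simp [relList])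
    · simpa [gword, lets, r_c2] using R r_c2 (by simp [relList])
    · simpa [gword, lets, r_bc3, mul_assoc] using R r_bc3 (by simp [relList])
  have xa : (x 0 * x 1)⁻¹ * x 1 * (x 0 * x 1) = x 0 := by
    apply braid_image
    · simpa [gword, lets, r_a2] using R r_a2 (by simp [relList])
    · simpa [gword, lets, r_b2] using R r_b2 (by simp [relList])
    · simpa [gword, lets, r_ab3, mul_assoc] using R r_ab3 (by simp [relList])
  set b' := (b0 * c0)⁻¹ * c0 * (b0 * c0) with hb'def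
  have σb' : σ b' = x 1 := by simp only [hb'def, map_mul, map_inv, hb0, hc0, xb]
  set a' := (a0 * b')⁻¹ * b' * (a0 * b') with ha'def
  have σa' : σ a' = x 0 := by simp only [ha'def, map_mul, map_inv, ha0, σb', xa]
  set X := a' * ((c0 * d) ^ 4)⁻¹ * (c0 * c0) * (c0 * c0) with hXdef
  have σX : σ X = 1 := by
    have h1 : gword (lets x) r_acd4 = 1 := R r_acd4 (by simp [relList])
    have h2 : gword (lets x) r_c2 = 1 := R r_c2 (by simp [relList])
    simp [gword, lets, r_c2] at h2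
    simp only [hXdef, map_mul, map_inv, map_pow, σa', hc0, σd, h2, mul_one]
    simpa [gword, lets, r_acd4, pow_succ, mul_assoc] using h1
  have hμc : X⁻¹ ∈ center E := inv_mem (cen _ σX)
  obtain ⟨m, hm⟩ : ∃ m, X⁻¹ = m := ⟨_, rfl⟩
  rw [hm] at hμc
  have cm' : ∀ y, Commute m y := fun y => (comm_central hμc y).symm
  have σm : σ m = 1 := by rw [← hm, map_inv, σX, inv_one]
  set c := c0 * m with hcdef
  have σc : σ c = x 2 := by rw [hcdef, map_mul, hc0, σm, mul_one]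
  set b := (b0 * c)⁻¹ * c * (b0 * c) with hbdef
  have hbb' : b = b' * m := by
    rw [hbdef, conj_eq σ hk (show σ (b0 * c) = σ (b0 * c0) by rw [map_mul σ b0 c, map_mul σ b0 c0, σc, hc0]) c,
      hcdef, conj_mul_central hμc]
  have σb : σ b = x 1 := by rw [hbb', map_mul, σb', σm, mul_one]
  set a := (a0 * b)⁻¹ * b * (a0 * b) with hadef
  have haa' : a = a' * m := by
    rw [hadef, conj_eq σ hk (show σ (a0 * b) = σ (a0 * b') by rw [map_mul σ a0 b, map_mul σ a0 b', σb, σb']) b,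
      hbb', conj_mul_central hμc]
  have σa : σ a = x 0 := by rw [haa', map_mul, σa', σm, mul_one]
  have hc2c : c * c ∈ center E := cen _ (by
    simpa [gword, lets, r_c2, σc] using R r_c2 (by simp [relList]))
  obtain ⟨hbc, hbb⟩ := braid_lift σ hk b0 c (σb.trans hb0.symm) hc2c
  obtain ⟨hab, haa⟩ := braid_lift σ hk a0 b (σa.trans ha0.symm) (hbb ▸ hc2c)
  rw [← hbdef] at hbc hbb
  rw [← hadef] at hab haa
  have hX1 : a * ((c * d) ^ 4)⁻¹ * (c * c) * (c * c) = 1 := by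
    have h1 : (c * d) ^ 4 = (c0 * d) ^ 4 * m ^ 4 := by
      rw [hcdef, mul_assoc, (cm' d).eq, ← mul_assoc, ((cm' (c0 * d)).symm).mul_pow]
    have h2 : c * c = c0 * c0 * m ^ 2 := by
      rw [hcdef, ← pow_two, ((cm' c0).symm).mul_pow, pow_two c0]
    have h3 : ∀ y : E, ∀ n : ℕ, Commute (m ^ n) y := fun y n => (cm' y).pow_left n
    rw [h1, h2, haa', mul_inv_rev, show a' * m * ((m ^ 4)⁻¹ * ((c0 * d) ^ 4)⁻¹) *
      (c0 * c0 * m ^ 2) * (c0 * c0 * m ^ 2) = a' * ((m * (m ^ 4)⁻¹) * (((c0 * d) ^ 4)⁻¹ *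
      (c0 * c0))) * (m ^ 2 * (c0 * c0)) * m ^ 2 by group,
      ((cm' _).mul_left ((h3 _ 4).inv_left)).eq, (h3 _ 2).eq,
      show a' * (((c0 * d) ^ 4)⁻¹ * (c0 * c0) * (m * (m ^ 4)⁻¹)) * (c0 * c0 * m ^ 2) * m ^ 2 =
        a' * ((c0 * d) ^ 4)⁻¹ * (c0 * c0) * ((m * (m ^ 4)⁻¹) * (c0 * c0)) * (m ^ 2 * m ^ 2) by
        group,
      ((cm' _).mul_left ((h3 _ 4).inv_left)).eq, show a' * ((c0 * d) ^ 4)⁻¹ * (c0 * c0) *
      (c0 * c0 * (m * (m ^ 4)⁻¹)) * (m ^ 2 * m ^ 2) = X * m by rw [hXdef]; group, ← hm,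
      mul_inv_cancel]
  -- u
  set Cn := a * c * ((u0 * s) ^ 3)⁻¹ * (u0 * u0 * (a * c)⁻¹) with hCdef
  have σC : σ Cn = 1 := by
    have h1 : gword (lets x) relC = 1 := R relC (by simp [relList])
    have h2 : gword (lets x) r_u2 = 1 := R r_u2 (by simp [relList])
    simp only [hCdef, map_mul, map_inv, map_pow, σa, σc, σs, hu0]
    rw [show x 0 * x 2 * ((x 7 * x 5) ^ 3)⁻¹ = 1 by
        simpa [gword, lets, relC, pow_succ, mul_assoc] using h1,
      show x 7 * x 7 * (x 0 * x 2)⁻¹ = 1 by simpa [gword, lets, r_u2, mul_assoc] using h2, mul_one]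
  have hnc : Cn ∈ center E := cen _ σC
  set u := u0 * Cn with hudef
  have σu : σ u = x 7 := by rw [hudef, map_mul, hu0, σC, mul_one]
  have cn : ∀ y, Commute Cn y := fun y => (comm_central hnc y).symm
  have hC1 : a * c * ((u * s) ^ 3)⁻¹ * (u * u * (a * c)⁻¹) = 1 := by
    have h1 : (u * s) ^ 3 = (u0 * s) ^ 3 * Cn ^ 3 := by
      rw [hudef, mul_assoc, (cn s).eq, ← mul_assoc, ((cn (u0 * s)).symm).mul_pow]
    have h2 : u * u = u0 * u0 * Cn ^ 2 := by
      rw [hudef, ← pow_two, ((cn u0).symm).mul_pow, pow_two u0]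
    have h3 : ∀ y : E, ∀ n : ℕ, Commute (Cn ^ n) y := fun y n => (cn y).pow_left n
    rw [h1, h2, mul_inv_rev, ← mul_assoc (a * c), ((h3 _ 3).inv_left).symm.eq,
      show (Cn ^ 3)⁻¹ * (a * c) * ((u0 * s) ^ 3)⁻¹ * (u0 * u0 * Cn ^ 2 * (a * c)⁻¹) =
        (Cn ^ 3)⁻¹ * (a * c * ((u0 * s) ^ 3)⁻¹ * (u0 * u0 * (Cn ^ 2 * (a * c)⁻¹))) by group,
      (h3 _ 2).eq, show (Cn ^ 3)⁻¹ * (a * c * ((u0 * s) ^ 3)⁻¹ * (u0 * u0 * ((a * c)⁻¹ * Cn ^ 2)))
        = (Cn ^ 3)⁻¹ * (a * c * ((u0 * s) ^ 3)⁻¹ * (u0 * u0 * (a * c)⁻¹)) * Cn ^ 2 by group, ← hCdef]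
    group
  have σu0 : σ u = σ u0 := by rw [σu, hu0]
  have htu' : u⁻¹ * t * u * t = 1 := by rw [conj_eq σ hk σu0 t, htu]
  refine ⟨vec a b c d e s t u, fun i => ?_, ?_⟩
  · rcases Nat.lt_or_ge i 8 with hi | hi
    · interval_cases i <;> assumption
    · rw [hx i hi, vec, List.getD_eq_default _ _ (by simpa using hi), map_one]
  · intro w hw
    simp only [stage1, List.mem_cons, List.not_mem_nil, or_false] at hw
    rcases hw with rfl|rfl|rfl|rfl|rfl|rfl|rfl|rfl|rfl|rfl|rfl|rfl|rfl|rfl|rfl|rfl|rfl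
    · simpa [gword, lets, r_d2, vec] using hd2
    · simpa [gword, lets, r_e2, vec] using he2
    · simpa [gword, lets, r_de3, vec, mul_assoc] using hde
    · show gword (lets (vec a b c d e s t u)) r_abn = 1
      simp [gword, lets, r_abn, vec, ← mul_assoc]
      rw [hab]; group
    · show gword (lets (vec a b c d e s t u)) r_bcn = 1
      simp [gword, lets, r_bcn, vec, ← mul_assoc]
      rw [hbc]; group
    · simpa [gword, lets, wX, r_acd4, r_c2, vec, pow_succ, mul_assoc] using hX1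
    · simp [gword, lets, w_ab, r_a2, r_b2, rv, vec, ← mul_assoc]
      rw [haa]; group
    · simp [gword, lets, w_bc, r_b2, r_c2, rv, vec, ← mul_assoc]
      rw [hbb]; group
    · simp [gword, lets, r_es, vec, ← mul_assoc]
      rw [show e⁻¹ * s⁻¹ * e * s⁻¹ * s⁻¹ * e⁻¹ * s * s * s =
        (e⁻¹ * s⁻¹ * e * s) * ((s ^ 3)⁻¹ * e * s ^ 3)⁻¹ by simp [pow_succ, mul_assoc],
        hes', mul_inv_cancel]
    · simp [gword, lets, r_st, vec, ← mul_assoc]
      rw [hst]; group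
    · simpa [gword, lets, r_t3, vec, mul_assoc] using ht3
    · simpa [gword, lets, r_tu, vec, mul_assoc] using htu'
    · simpa [gword, lets, wCn, relC, r_u2, vec, pow_succ, mul_assoc] using hC1
    · simpa [gword, lets, r_sd2, vec, mul_assoc] using hsd
    · simpa [gword, lets, r_s7, vec, pow_succ, mul_assoc] using hs7
    · simp [gword, lets, r_td, vec, ← mul_assoc]
      rw [show t⁻¹ * d⁻¹ * t = (t⁻¹ * d * t)⁻¹ by group, htd, inv_mul_cancel]
    · simp [gword, lets, r_te, vec, ← mul_assoc]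
      rw [show t⁻¹ * e⁻¹ * t = (t⁻¹ * e * t)⁻¹ by group, hte, inv_mul_cancel]

end CfsgLib.ThCover66
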