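import Cfsg.Agent.ThCover66.Lifts
import Cfsg.Agent.ThCover66.G1.Upper
import Cfsg.Agent.ThCover66.G14.Upper
import Cfsg.Agent.ThCover66.NB.Upper
import Cfsg.Agent.ThH99.Spor

/-!
A central extension of the Thompson group splits, given a few word identities in the group.
-/

set_option autoImplicit false
set_option maxRecDepth 100000

namespace CfsgLib.ThCover66

open CfsgLib.CosetEnum Cfsg.Spor

/-- the local letter of a global one -/
def unemb (sel : List ℕ) (x : ℕ) : ℕ := 2 * sel.idxOf (x / 2) + x % 2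

/-- all the words fix the first point of the table -/
noncomputable def fixOK (C : CertData) (sel : List ℕ) (ws : List (List ℕ)) : Bool :=
  ws.all fun w => ((w.map (unemb sel)).map (emb sel) == w) &&
    (w.map (unemb sel)).all (fun x => x.blt C.L) && (runT C.T C.L (w.map (unemb sel)) 0 == 0)

theorem table_kills {E : Type*} [Group E] {C : CertData} {N : ℕ}
    (hN : FactsChecked C.ep C.iv C.words C.nr N) (h0 : C.node 0 = 0) (hn : 0 < C.n)
    (hrow : ∀ i < C.n, checkRow C.ep C.iv N C.L C.node C.T C.tf C.n i = true)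
    (hiv : ∀ x, C.iv x = x ^^^ 1) (v : ℕ → E) (sel : List ℕ) (exact cen : List (List ℕ))
    (cg : List ℕ) (hok : wordsOK C.words C.nr sel (tableRels exact cen cg) = true)
    (hx : ∀ w ∈ exact, gword (lets v) w = 1)
    (hc : ∀ w ∈ cen, gword (lets v) w ∈ Subgroup.center E)
    (H : Subgroup E) (subs : List (List ℕ)) (hs : (C.words.drop C.nr).map (·.map (emb sel)) = subs)
    (hsub : ∀ w ∈ subs, gword (lets v) w ∈ H) (ws : List (List ℕ)) (hfix : fixOK C sel ws = true) :
    ∀ w ∈ ws, gword (lets v) w ∈ H := by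
  intro w hw
  have h := List.all_eq_true.1 hfix w hw
  simp only [Bool.and_eq_true, List.all_eq_true, beq_iff_eq, Nat.blt, Nat.ble_eq] at h
  obtain ⟨⟨h1, h2⟩, h3⟩ := h
  rw [← h1]
  exact mem_of_table hN h0 hn hrow hiv v sel _ hok (tableRels_one v hx hc) H
    (fun u hu => hsub _ (hs ▸ List.mem_map_of_mem hu)) _ (fun x hx => h2 x hx) h3

/-- the relators of the first group -/
def g1L : List (List ℕ) :=
  [r_a2, r_b2, r_c2, r_d2, r_e2, r_ab3, r_ae2, r_bc3, r_bd2, r_be2, r_acd4, r_ce2, r_de3, r_bcde8]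
/-- those not holding by the choice of lifts -/
def cen1 : List (List ℕ) :=
  [r_a2, r_b2, r_c2, r_ab3, r_ae2, r_bc3, r_bd2, r_be2, r_acd4, r_ce2, r_bcde8]
/-- the relators of the first three groups without `b` -/
def k0L : List (List ℕ) :=
  [r_a2, r_c2, r_d2, r_e2, r_ae2, r_acd4, r_ce2, r_de3, r_s7, r_sa, r_sc, r_sd2, r_es, r_t3,
    r_ta, r_tc, r_td, r_te, r_st]
/-- the word comparing `e^g` with `a c` -/
def wZ : List ℕ := rv wG ++ [8] ++ wG ++ [5, 1]
/-- the word of `n` -/
def wN : List ℕ := wG ++ wK ++ rv wG ++ [11, 11]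

/-- the generators of the presented group -/
noncomputable def xT : ℕ → Cfsg.Spor.Th :=
  fun i => [Th34.g .a, Th34.g .b, Th34.g .c, Th34.g .d, Th34.g .e, Th34.g .s, Th34.g .t,
    Th34.g .u].getD i 1

/-- the identities of the Thompson group used below -/
structure Facts : Prop where
  d_ne : Th34.g .d ≠ 1
  card_H : Nat.card Th34.H = 634023936
  i0 : gword (lets xT) wZ = 1
  i1 : gword (lets xT) (rv wW ++ rv wG ++ wE1 ++ wG) = 1
  i2 : gword (lets xT) (wN ++ wN ++ wN) = 1
  i3 : gword (lets xT) (rv wK ++ wW ++ wK ++ rv wW ++ [5, 1]) = 1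

theorem relList_eq : (Th.extra.map fun r => encWord ThH99.enc (fun x => x ^^^ 1) r) = relList := by
  decide +kernel

theorem lift_eq {E : Type*} [Group E] (v : ℕ → E) (r : FreeGroup Th.Gen) :
    FreeGroup.lift (fun x => v (ThH99.enc x / 2)) r =
      gword (lets v) (encWord ThH99.enc (fun x => x ^^^ 1) r) := by
  refine map_eq_gword _ _ _ _ (fun a => ?_) (fun a => ?_) r
  · rw [FreeGroup.lift_apply_of]; cases a <;> rfl
  · rw [FreeGroup.lift_apply_of, lets_inv]; cases a <;> rfl

theorem xT_enc (x : Th.Gen) : xT (ThH99.enc x / 2) = Th34.g x := by cases x <;> rfl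

theorem xT_rel : ∀ w ∈ relList, gword (lets xT) w = 1 := by
  intro w hw
  rw [← relList_eq, List.mem_map] at hw
  obtain ⟨r, hr, rfl⟩ := hw
  rw [← lift_eq]
  have : FreeGroup.lift (fun x => xT (ThH99.enc x / 2)) = Th34.π :=
    FreeGroup.ext_hom _ _ fun x => by rw [FreeGroup.lift_apply_of, xT_enc]
  rw [this]
  exact Th34.rel hr

theorem xT_big (i : ℕ) (h : 8 ≤ i) : xT i = 1 := List.getD_eq_default _ _ (by simpa using h)

section

variable {E : Type} [Group E] {σ : E →* Cfsg.Spor.Th} (hk : σ.ker ≤ Subgroup.center E)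
  {v : ℕ → E} (hv : ∀ i, σ (v i) = xT i) (F : Facts)
include hk hv F

theorem g1_one (hS : ∀ w ∈ stage1, gword (lets v) w = 1) :
    ∀ w ∈ g1L, gword (lets v) w = 1 := by
  have cen : ∀ w ∈ relList, gword (lets v) w ∈ Subgroup.center E :=
    fun w hw => central_of σ hk v xT hv (xT_rel w hw)
  have hsub : ∀ w ∈ cen1, gword (lets v) w ∈ Subgroup.closure {v 3, v 4} := by
    refine table_kills G1.facts G1.node_zero G1.n_pos G1.rows (fun _ => rfl) v [0, 1, 2, 3, 4]
      [r_d2, r_e2, r_de3, r_abn, r_bcn, wX, w_ab, w_bc] cen1 [0, 1, 2, 3, 4] (by decide +kernel)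
      (fun w hw => hS w ?_) (fun w hw => cen w ?_) _ [[6], [8]] (by decide +kernel)
      (fun w hw => ?_) cen1 (by decide +kernel)
    · simp only [List.mem_cons, List.not_mem_nil, or_false] at hw
      rcases hw with rfl | rfl | rfl | rfl | rfl | rfl | rfl | rfl <;> simp [stage1]
    · simp only [cen1, List.mem_cons, List.not_mem_nil, or_false] at hw
      rcases hw with rfl | rfl | rfl | rfl | rfl | rfl | rfl | rfl | rfl | rfl | rfl <;>
        simp [relList]
    · simp only [List.mem_cons, List.not_mem_nil, or_false] at hw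
      rcases hw with rfl | rfl <;> apply Subgroup.subset_closure <;> simp [gword, lets]
  have hd2 : v 3 * v 3 = 1 := by simpa [gword, lets, r_d2] using hS r_d2 (by simp [stage1])
  have he2 : v 4 * v 4 = 1 := by simpa [gword, lets, r_e2] using hS r_e2 (by simp [stage1])
  have hde : v 3 * v 4 * (v 3 * v 4) * (v 3 * v 4) = 1 := by
    simpa [gword, lets, r_de3, mul_assoc] using hS r_de3 (by simp [stage1])
  have hker : ∀ z ∈ Subgroup.closure {v 3, v 4}, σ z = 1 → z = 1 := by
    obtain ⟨d, hd⟩ : ∃ d, v 3 = d := ⟨_, rfl⟩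
    obtain ⟨e, he⟩ : ∃ e, v 4 = e := ⟨_, rfl⟩
    rw [hd, he] at hde ⊢
    rw [hd] at hd2
    rw [he] at he2
    have hσd : σ d ≠ 1 := by rw [← hd, hv]; exact F.d_ne
    have hdi : d⁻¹ = d := inv_eq_of_mul_eq_one_left hd2
    have hei : e⁻¹ = e := inv_eq_of_mul_eq_one_left he2
    have hbr : d * e * d = e * d * e := by
      calc d * e * d = d * e * (d * e) * (d * e) * (e⁻¹ * d⁻¹ * e⁻¹) := by group
        _ = e * d * e := by rw [hde, one_mul, hdi, hei]
    have mem : ∀ z ∈ Subgroup.closure {d, e},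
        z ∈ [1, d, e, d * e, e * d, d * e * d] := by
      intro z hz
      induction hz using Subgroup.closure_induction_left with
      | one => simp
      | mul_left x hx y _ ih =>
        simp only [List.mem_cons, List.not_mem_nil, or_false] at ih ⊢
        rcases hx with rfl | rfl <;> rcases ih with rfl | rfl | rfl | rfl | rfl | rfl <;>
          simp [hd2, he2, hbr, ← mul_assoc]
        all_goals simp [hbr, mul_assoc, hd2, he2]
      | inv_mul_cancel x hx y _ ih =>
        simp only [List.mem_cons, List.not_mem_nil, or_false] at ih ⊢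
        rcases hx with rfl | rfl <;> rcases ih with rfl | rfl | rfl | rfl | rfl | rfl <;>
          simp [hdi, hei, hd2, he2, hbr, ← mul_assoc]
        all_goals simp [hbr, mul_assoc, hd2, he2]
    intro z hz hσz
    have hc : ∀ y, y * z = z * y := fun y => Subgroup.mem_center_iff.1 (hk hσz) y
    have hzm := mem z hz
    simp only [List.mem_cons, List.not_mem_nil, or_false] at hzm
    have σbr : σ d * σ e * σ d = σ e * σ d * σ e := by simp only [← map_mul, hbr]
    rcases hzm with rfl | rfl | rfl | rfl | rfl | rfl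
    · rfl
    · exact absurd hσz hσd
    · refine absurd ?_ hσd
      rwa [hσz, mul_one, one_mul, mul_one, ← map_mul, hd2, map_one, eq_comm] at σbr
    · have h := hc d
      rw [show d * (d * e) = d * d * e by group, hd2, one_mul, hbr] at h
      have h1 : d * e = 1 := by
        calc d * e = e⁻¹ * (e * d * e) := by group
          _ = 1 := by rw [← h, inv_mul_cancel]
      exact h1
    · have h := hc d
      rw [← mul_assoc, hbr, show e * d * d = e * (d * d) by group, hd2, mul_one] at h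
      calc e * d = e * d * e * e⁻¹ := by group
        _ = 1 := by rw [h, mul_inv_cancel]
    · refine absurd ?_ hσd
      simp only [map_mul] at hσz
      have hσd2 : σ d * σ d = 1 := by rw [← map_mul, hd2, map_one]
      have h1 : σ e = 1 := by
        calc σ e = (σ d)⁻¹ * (σ d * σ e * σ d) * (σ d)⁻¹ := by group
          _ = 1 := by rw [hσz, mul_one, ← mul_inv_rev, hσd2, inv_one]
      rw [h1, mul_one, one_mul, mul_one, hσd2] at σbr
      exact σbr.symm
  intro w hw
  by_cases h : w ∈ stage1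
  · exact hS w h
  have h1 : w ∈ cen1 := by
    simp only [g1L, List.mem_cons, List.not_mem_nil, or_false] at hw
    rcases hw with rfl | rfl | rfl | rfl | rfl | rfl | rfl | rfl | rfl | rfl | rfl | rfl | rfl | rfl <;>
      first | (simp [cen1]; done) | exact absurd (by simp [stage1]) h
  have hr : w ∈ relList := by
    simp only [cen1, List.mem_cons, List.not_mem_nil, or_false] at h1
    rcases h1 with rfl | rfl | rfl | rfl | rfl | rfl | rfl | rfl | rfl | rfl | rfl <;> simp [relList]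
  exact hker _ (hsub w h1) (by rw [map_lets σ v xT hv, xT_rel w hr])

theorem h_one (hS : ∀ w ∈ stage1, gword (lets v) w = 1) :
    ∀ w ∈ relList.take 27, gword (lets v) w = 1 := by
  have h1 := g1_one hk hv F hS
  have two : ∀ i, i ∈ [0, 1, 2] → v i * v i = 1 := by
    intro i hi
    simp only [List.mem_cons, List.not_mem_nil, or_false] at hi
    rcases hi with rfl | rfl | rfl
    · simpa [gword, lets, r_a2] using h1 r_a2 (by simp [g1L])
    · simpa [gword, lets, r_b2] using h1 r_b2 (by simp [g1L])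
    · simpa [gword, lets, r_c2] using h1 r_c2 (by simp [g1L])
  have ht3 : v 6 * v 6 * v 6 = 1 := by
    simpa [gword, lets, r_t3, mul_assoc] using hS r_t3 (by simp [stage1])
  have hst : (v 6)⁻¹ * v 5 * v 6 = v 5 * v 5 := by
    have h := hS r_st (by simp [stage1])
    simp [gword, lets, r_st, ← mul_assoc] at h
    calc (v 6)⁻¹ * v 5 * v 6 = ((v 6)⁻¹ * v 5 * v 6 * (v 5)⁻¹ * (v 5)⁻¹) * (v 5 * v 5) := by group
      _ = v 5 * v 5 := by rw [h, one_mul]
  have key : ∀ i x, i ∈ [0, 1, 2] → xT x = xT x → (x = 5 ∨ x = 6) →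
      gword (lets xT) [2 * x + 1, 2 * i + 1, 2 * x, 2 * i] = 1 →
      (v x)⁻¹ * v i * v x = v i ∧ gword (lets v) [2 * x + 1, 2 * i + 1, 2 * x, 2 * i] = 1 := by
    intro i x hi _ hx hT
    have e1 : (2 * x + 1) / 2 = x := by omega
    have e2 : (2 * i + 1) / 2 = i := by omega
    have hT' : (xT i)⁻¹ * ((xT x)⁻¹ * xT i * xT x) = 1 := by
      simp [gword, lets, e1, e2, ← mul_assoc] at hT
      rw [show (xT x)⁻¹ * xT i * xT x = ((xT x)⁻¹ * (xT i)⁻¹ * xT x)⁻¹ by group,
        mul_eq_one_iff_eq_inv.mp hT, inv_inv, inv_mul_cancel]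
    have cen : ∀ y, (xT i)⁻¹ * (y⁻¹ * xT i * y) = 1 → ∀ z, σ z = y →
        (v i)⁻¹ * (z⁻¹ * v i * z) ∈ Subgroup.center E := fun y hy z hz =>
      hk (by rw [MonoidHom.mem_ker]; simp only [map_mul, map_inv, hv, hz, hy])
    have ht : (v 6)⁻¹ * v i * v 6 = v i → x = 5 → (v x)⁻¹ * v i * v x = v i := by
      rintro h rfl
      have h' : (v 5)⁻¹ * v i * v 5 = v i * ((v i)⁻¹ * ((v 5)⁻¹ * v i * v 5)) := by group
      rw [h', comm_of_sq (cen _ hT' _ (hv 5)) h' (two i hi) h hst, mul_one]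
    have t6 : (v 6)⁻¹ * v i * v 6 = v i := by
      have hT6 : (xT i)⁻¹ * ((xT 6)⁻¹ * xT i * xT 6) = 1 := by
        have hw : [13, 2 * i + 1, 12, 2 * i] ∈ relList := by
          simp only [List.mem_cons, List.not_mem_nil, or_false] at hi
          rcases hi with rfl | rfl | rfl <;> simp [relList, r_ta, r_tb, r_tc]
        have h := xT_rel _ hw
        simp [gword, lets, e2, ← mul_assoc] at h
        rw [show (xT 6)⁻¹ * xT i * xT 6 = ((xT 6)⁻¹ * (xT i)⁻¹ * xT 6)⁻¹ by group,
          mul_eq_one_iff_eq_inv.mp h, inv_inv, inv_mul_cancel]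
      have h' : (v 6)⁻¹ * v i * v 6 = v i * ((v i)⁻¹ * ((v 6)⁻¹ * v i * v 6)) := by group
      rw [h', comm_of_three (cen _ hT6 _ (hv 6)) h' (two i hi) ht3, mul_one]
    have main : (v x)⁻¹ * v i * v x = v i := by
      rcases hx with hx | hx
      · exact ht t6 hx
      · subst hx; exact t6
    refine ⟨main, ?_⟩
    simp [gword, lets, e1, e2, ← mul_assoc]
    rw [show (v x)⁻¹ * (v i)⁻¹ * v x = ((v x)⁻¹ * v i * v x)⁻¹ by group, main, inv_mul_cancel]
  intro w hw
  simp only [relList, List.take_succ_cons, List.take_zero, List.mem_cons, List.not_mem_nil,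
    or_false] at hw
  rcases hw with rfl|rfl|rfl|rfl|rfl|rfl|rfl|rfl|rfl|rfl|rfl|rfl|rfl|rfl|rfl|rfl|rfl|rfl|rfl|rfl|rfl|rfl|rfl|rfl|rfl|rfl|rfl
  all_goals first
    | (refine h1 _ ?_; simp [g1L]; done)
    | (refine hS _ ?_; simp [stage1]; done)
    | skip
  · exact (key 0 5 (by simp) rfl (Or.inl rfl) (xT_rel r_sa (by simp [relList]))).2
  · exact (key 1 5 (by simp) rfl (Or.inl rfl) (xT_rel r_sb (by simp [relList]))).2
  · exact (key 2 5 (by simp) rfl (Or.inl rfl) (xT_rel r_sc (by simp [relList]))).2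
  · exact (key 0 6 (by simp) rfl (Or.inr rfl) (xT_rel r_ta (by simp [relList]))).2
  · exact (key 1 6 (by simp) rfl (Or.inr rfl) (xT_rel r_tb (by simp [relList]))).2
  · exact (key 2 6 (by simp) rfl (Or.inr rfl) (xT_rel r_tc (by simp [relList]))).2

theorem inj_H (hS : ∀ w ∈ stage1, gword (lets v) w = 1) :
    ∀ z ∈ ThH99.sub (fun x => v (ThH99.enc x / 2)) ThH99.kH, σ z = 1 → z = 1 := by
  set v' := fun x : Th.Gen => v (ThH99.enc x / 2) with hv'
  have hh : ThH99.Holds 27 v' := ThH99.holds_of_lift le_rfl fun n hn hlt => by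
    rw [lift_eq]
    refine h_one hk hv F hS _ ?_
    rw [← relList_eq, ← List.map_take]
    exact List.mem_map_of_mem (List.mem_iff_getElem.2 ⟨n, by simp [hn, hlt], by simp⟩)
  obtain ⟨hle, hne⟩ := ThH99.card_H_le (v := v') hh
  have := Nat.finite_of_card_ne_zero hne
  have hmap : (ThH99.sub v' ThH99.kH).map σ = Th34.H := by
    rw [← ThH99.sub_gv_kH]
    unfold ThH99.sub
    rw [MonoidHom.map_closure]
    congr 1
    ext y
    simp only [Set.mem_image, Set.mem_setOf_eq]
    have hσ : ∀ x, σ (ThH99.lv v' x) = ThH99.lv ThH99.gv x := fun x => by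
      rw [ThH99.map_lv]
      congr 1
      funext g
      rw [hv', hv, xT_enc]
      rfl
    constructor
    · rintro ⟨_, ⟨x, hx, rfl⟩, rfl⟩; exact ⟨x, hx, (hσ x).symm⟩
    · rintro ⟨x, hx, rfl⟩; exact ⟨_, ⟨x, hx, rfl⟩, hσ x⟩
  let f : ThH99.sub v' ThH99.kH → Th34.H := fun z => ⟨σ z, hmap ▸ Subgroup.mem_map_of_mem σ z.2⟩
  have hsurj : Function.Surjective f := by
    rintro ⟨y, hy⟩
    rw [← hmap] at hy
    obtain ⟨z, hz, rfl⟩ := hy
    exact ⟨⟨z, hz⟩, rfl⟩
  have hcard : Nat.card (ThH99.sub v' ThH99.kH) = Nat.card Th34.H :=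
    le_antisymm (F.card_H.symm ▸ hle) (Nat.card_le_card_of_surjective f hsurj)
  have hbij := (Nat.bijective_iff_surjective_and_card f).2 ⟨hsurj, hcard⟩
  intro z hz hσz
  have : f ⟨z, hz⟩ = f 1 := Subtype.ext (by simp [f, hσz])
  exact congrArg Subtype.val (hbij.1 this)

theorem rels_one (hS : ∀ w ∈ stage1, gword (lets v) w = 1) :
    ∀ w ∈ relList, gword (lets v) w = 1 := by
  have h27 := h_one hk hv F hS
  have inj := inj_H hk hv F hS
  set H := ThH99.sub (fun x => v (ThH99.enc x / 2)) ThH99.kH with hHdef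
  have cen : ∀ w ∈ relList, gword (lets v) w ∈ Subgroup.center E :=
    fun w hw => central_of σ hk v xT hv (xT_rel w hw)
  have hσ : ∀ w ∈ relList, σ (gword (lets v) w) = 1 :=
    fun w hw => by rw [map_lets σ v xT hv, xT_rel w hw]
  have gH : ∀ x, x ∈ [0, 2, 4, 6, 8, 10, 12] → gword (lets v) [x] ∈ H := by
    intro x hx
    have h := ThH99.lv_mem_sub (fun y => v (ThH99.enc y / 2)) (keep := ThH99.kH) (x := x)
      (Or.inl (by simpa [ThH99.kH] using hx))
    simp only [List.mem_cons, List.not_mem_nil, or_false] at hx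
    have he : gword (lets v) [x] = ThH99.lv (fun y => v (ThH99.enc y / 2)) x := by
      rcases hx with rfl | rfl | rfl | rfl | rfl | rfl | rfl <;>
        simp [gword, lets, ThH99.lv, CfsgLib.CosetEnum.letterVal, ThH99.dec, ThH99.enc]
    rw [he]
    exact h
  -- the table over the subgroup without `b`
  have NBt : ∀ ws : List (List ℕ), fixOK NB.cert [0, 2, 3, 4, 5, 6, 7] ws = true →
      ∀ w ∈ ws, gword (lets v) w ∈ H := by
    intro ws hws
    refine table_kills NB.facts NB.node_zero NB.n_pos NB.rows (fun _ => rfl) v _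
      (k0L ++ [wCn, r_tu]) [r_u2, r_ua, r_uc, r_ue, relA, r_eus, relF] [2, 3, 5, 6, 7]
      (by decide +kernel) (fun w hw => ?_) (fun w hw => cen w ?_) H
      [[0], [4], [6], [8], [10], [12]] (by decide +kernel) (fun w hw => ?_) ws hws
    · rcases List.mem_append.1 hw with h | h
      · exact h27 w ((by decide +kernel : ∀ w ∈ k0L, w ∈ relList.take 27) w h)
      · exact hS w ((by decide +kernel : ∀ w ∈ [wCn, r_tu], w ∈ stage1) w h)
    · exact (by decide +kernel : ∀ w ∈ [r_u2, r_ua, r_uc, r_ue, relA, r_eus, relF], w ∈ relList) w hw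
    · simp only [List.mem_cons, List.not_mem_nil, or_false] at hw
      rcases hw with rfl | rfl | rfl | rfl | rfl | rfl <;> exact gH _ (by simp)
  have hwk : gword (lets v) wk = 1 := by
    refine inj _ (NBt [wk] (by decide +kernel) wk (by simp)) ?_
    rw [wk, gword_app, gword_rv, map_mul, map_inv, hσ _ (by simp [relList]),
      hσ _ (by simp [relList])]
    simp
  -- the table over the first subgroup
  have G14t : ∀ ws : List (List ℕ), fixOK G14.cert [0, 1, 2, 3, 4, 7] ws = true →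
      ∀ w ∈ ws, gword (lets v) w ∈ H := by
    intro ws hws
    refine table_kills G14.facts G14.node_zero G14.n_pos G14.rows (fun _ => rfl) v _
      (g1L ++ [wk]) [r_u2, r_ua, r_uc, r_ue, relA, r_uv, relB] [0, 1, 2, 3, 4, 7]
      (by decide +kernel) (fun w hw => ?_) (fun w hw => cen w ?_) H
      [[0], [2], [4], [6], [8]] (by decide +kernel) (fun w hw => ?_) ws hws
    · rcases List.mem_append.1 hw with h | h
      · exact g1_one hk hv F hS w h
      · rw [List.mem_singleton.1 h]; exact hwk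
    · exact (by decide +kernel : ∀ w ∈ [r_u2, r_ua, r_uc, r_ue, relA, r_uv, relB], w ∈ relList) w hw
    · simp only [List.mem_cons, List.not_mem_nil, or_false] at hw
      rcases hw with rfl | rfl | rfl | rfl | rfl <;> exact gH _ (by simp)
  have h4 : ∀ w ∈ [r_u2, r_ua, r_uc, r_ue, relA, relB], gword (lets v) w = 1 := fun w hw =>
    inj _ (G14t [r_u2, r_ua, r_uc, r_ue, relA, relB] (by decide +kernel) w hw)
      (hσ w ((by decide +kernel : ∀ w ∈ [r_u2, r_ua, r_uc, r_ue, relA, relB], w ∈ relList) w hw))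
  have h6 : ∀ w ∈ [r_eus, relC, relD, relF], gword (lets v) w = 1 := by
    intro w hw
    have hin : w ++ rv r_ue ∈ [r_eus, relC, relD, relF].map (· ++ rv r_ue) :=
      List.mem_map_of_mem (f := (· ++ rv r_ue)) hw
    have hmem := NBt _ (by decide +kernel) _ hin
    have hwr : w ∈ relList :=
      (by decide +kernel : ∀ w ∈ [r_eus, relC, relD, relF], w ∈ relList) w hw
    have hue := h4 r_ue (by simp)
    have h := inj _ hmem (by rw [map_lets σ v xT hv, gword_app, gword_rv, xT_rel w hwr,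
      xT_rel r_ue (by simp [relList])]; simp)
    rwa [gword_app, gword_rv, hue, inv_one, mul_one] at h
  -- the last central value
  obtain ⟨ω, hω⟩ : ∃ ω, gword (lets v) r_uv = ω := ⟨_, rfl⟩
  have hωc : ω ∈ Subgroup.center E := hω ▸ cen _ (by simp [relList])
  obtain ⟨G, hG⟩ : ∃ G, gword (lets v) wG = G := ⟨_, rfl⟩
  obtain ⟨K, hK⟩ : ∃ K, gword (lets v) wK = K := ⟨_, rfl⟩
  obtain ⟨W, hW⟩ : ∃ W, gword (lets v) wW = W := ⟨_, rfl⟩
  obtain ⟨e1, he1⟩ : ∃ e1, (v 5)⁻¹ * v 4 * v 5 = e1 := ⟨_, rfl⟩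
  have he1' : gword (lets v) wE1 = e1 := by
    rw [← he1]; simp [gword, lets, wE1, mul_assoc]
  have hac : gword (lets v) [5, 1] = (v 0 * v 2)⁻¹ := by simp [gword, lets]
  have hZ : G⁻¹ * v 4 * G * (v 0 * v 2)⁻¹ * ω = 1 := by
    have h := inj _ (G14t [wZ ++ r_uv] (by decide +kernel) (wZ ++ r_uv) (by simp)) (by
      rw [map_lets σ v xT hv, gword_app, F.i0, xT_rel r_uv (by simp [relList]), mul_one])
    have h8 : gword (lets v) [8] = v 4 := by simp [gword, lets]
    rwa [gword_app, wZ, gword_app, gword_app, gword_app, gword_rv, hG, h8, hac, hω] at h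
  have hη : W⁻¹ * (G⁻¹ * e1 * G) ∈ Subgroup.center E := by
    have h := central_of σ hk v xT hv F.i1
    rwa [gword_app, gword_app, gword_app, gword_rv, gword_rv, hW, hG, he1', mul_assoc W⁻¹,
      mul_assoc W⁻¹] at h
  have hWk : K⁻¹ * W * K = v 0 * v 2 * W := by
    have hle : ∀ w : List ℕ, (∀ x ∈ w, x < 14) → gword (lets v) w ∈ H := by
      intro w hw
      induction w with
      | nil => exact one_mem H
      | cons x w ih =>
        rw [gword_cons]
        refine mul_mem ?_ (ih fun y hy => hw y (List.mem_cons_of_mem _ hy))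
        have hx := hw x (by simp)
        have hg := gH (2 * (x / 2)) (by simp only [List.mem_cons, List.not_mem_nil, or_false]; omega)
        have he : gword (lets v) [2 * (x / 2)] = v (x / 2) := by simp [gword, lets]
        rw [he] at hg
        unfold lets
        cases x % 2 == 0 <;> simp [hg]
    have h := inj _ (hle _ (by decide +kernel : ∀ x ∈ rv wK ++ wW ++ wK ++ rv wW ++ [5, 1], x < 14))
      (by rw [map_lets σ v xT hv, F.i3])
    rw [gword_app, gword_app, gword_app, gword_app, gword_rv, gword_rv, hK, hW, hac] at h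
    calc K⁻¹ * W * K = K⁻¹ * W * K * W⁻¹ * (v 0 * v 2)⁻¹ * (v 0 * v 2 * W) := by group
      _ = v 0 * v 2 * W := by rw [h, one_mul]
  have he2 : v 4 * v 4 = 1 := by simpa [gword, lets, r_e2] using hS r_e2 (by simp [stage1])
  have hsh : v 5 * (v 5 * v 4 * (v 5)⁻¹) * (v 5)⁻¹ * (v 5 * v 4 * (v 5)⁻¹) = e1 := by
    have h := hS r_es (by simp [stage1])
    simp [gword, lets, r_es, ← mul_assoc] at h
    have hei : (v 4)⁻¹ = v 4 := inv_eq_of_mul_eq_one_left he2
    obtain ⟨e, he⟩ : ∃ e, v 4 = e := ⟨_, rfl⟩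
    obtain ⟨s, hs⟩ : ∃ s, v 5 = s := ⟨_, rfl⟩
    simp only [he, hs] at h hei he1 ⊢
    have h' : e⁻¹ * s⁻¹ * e * s = s⁻¹ * (s⁻¹ * (s⁻¹ * e * s) * s) * s := by
      calc e⁻¹ * s⁻¹ * e * s = e⁻¹ * s⁻¹ * e * s⁻¹ * s⁻¹ * e⁻¹ * s * s * s *
            (s⁻¹ * (s⁻¹ * (s⁻¹ * e * s) * s) * s) := by group
        _ = _ := by rw [h, one_mul]
    calc s * (s * e * s⁻¹) * s⁻¹ * (s * e * s⁻¹)
        = s * (s * (e⁻¹ * s⁻¹ * e * s) * s⁻¹) * s⁻¹ := by rw [hei]; group
      _ = e1 := by rw [h', ← he1]; group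
  obtain ⟨η, hηd⟩ : ∃ η, W⁻¹ * (G⁻¹ * e1 * G) = η := ⟨_, rfl⟩
  rw [hηd] at hη
  have hωi : ω⁻¹ ∈ Subgroup.center E := inv_mem hωc
  obtain ⟨N, hN⟩ : ∃ N, gword (lets v) wN = N := ⟨_, rfl⟩
  have hN' : N = G * K * G⁻¹ * ((v 5)⁻¹ * (v 5)⁻¹) := by
    have h11 : gword (lets v) [11, 11] = (v 5)⁻¹ * (v 5)⁻¹ := by simp [gword, lets]
    rw [← hN, wN, gword_app, gword_app, gword_app, gword_rv, hG, hK, h11]
  have hconj : N⁻¹ * e1 * N = e1 * ω := by
    have hac' : v 0 * v 2 = G⁻¹ * v 4 * G * ω := by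
      calc v 0 * v 2 = (G⁻¹ * v 4 * G * (v 0 * v 2)⁻¹ * ω)⁻¹ * (G⁻¹ * v 4 * G) *
            ((v 0 * v 2)⁻¹ * ω * (v 0 * v 2)) := by group
        _ = _ := by rw [hZ, inv_one, one_mul, conj_central hωc]
    have hW' : W = G⁻¹ * e1 * G * η⁻¹ := by rw [← hηd]; group
    have hs1 : G⁻¹ * e1 * G = W * η := by rw [hW']; group
    calc N⁻¹ * e1 * N
        = v 5 * v 5 * (G * (K⁻¹ * (G⁻¹ * e1 * G) * K) * G⁻¹) * ((v 5)⁻¹ * (v 5)⁻¹) := by
          rw [hN']; simp only [mul_inv_rev, inv_inv, mul_assoc]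
      _ = v 5 * v 5 * (G * ((G⁻¹ * v 4 * G * ω) * W * η) * G⁻¹) * ((v 5)⁻¹ * (v 5)⁻¹) := by
          rw [hs1, conj_mul_central hη, hWk, hac']
      _ = v 5 * v 5 * v 4 * (G * (ω * (G⁻¹ * e1 * G)) * G⁻¹) * ((v 5)⁻¹ * (v 5)⁻¹) := by
          rw [hW']; group
      _ = v 5 * v 5 * v 4 * (e1 * ω) * ((v 5)⁻¹ * (v 5)⁻¹) := by
          rw [← comm_central hωc (G⁻¹ * e1 * G)]
          rw [show G * (G⁻¹ * e1 * G * ω) * G⁻¹ = e1 * (G * ω * G⁻¹) by group,
            comm_central hωc G, mul_assoc ω G, mul_inv_cancel, mul_one]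
      _ = v 5 * (v 5 * v 4 * (v 5)⁻¹) * (v 5)⁻¹ *
            ((v 5 * v 5) * (e1 * ω) * (v 5 * v 5)⁻¹) := by group
      _ = v 5 * (v 5 * v 4 * (v 5)⁻¹) * (v 5)⁻¹ * ((v 5 * v 4 * (v 5)⁻¹) * ω) := by
          congr 1
          rw [show v 5 * v 5 * (e1 * ω) * (v 5 * v 5)⁻¹ =
            v 5 * v 5 * e1 * (ω * (v 5 * v 5)⁻¹) by group, ← comm_central hωc, ← he1]
          group
      _ = e1 * ω := by rw [← mul_assoc, hsh]
  have hω2 : ω * ω = 1 := by
    have h : (N⁻¹ * e1 * N) * (N⁻¹ * e1 * N) = 1 := by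
      rw [show N⁻¹ * e1 * N * (N⁻¹ * e1 * N) = N⁻¹ * (e1 * e1) * N by group,
        show e1 * e1 = 1 by rw [← he1]; calc
          (v 5)⁻¹ * v 4 * v 5 * ((v 5)⁻¹ * v 4 * v 5) = (v 5)⁻¹ * (v 4 * v 4) * v 5 := by group
          _ = 1 := by rw [he2]; group]
      group
    rw [hconj, show e1 * ω * (e1 * ω) = e1 * (ω * e1) * ω by group, ← comm_central hωc,
      show e1 * (e1 * ω) * ω = e1 * e1 * (ω * ω) by group,
      show e1 * e1 = 1 by rw [← he1]; calc
        (v 5)⁻¹ * v 4 * v 5 * ((v 5)⁻¹ * v 4 * v 5) = (v 5)⁻¹ * (v 4 * v 4) * v 5 := by group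
        _ = 1 := by rw [he2]; group, one_mul] at h
    exact h
  have hω3 : ω * ω * ω = 1 := by
    have hc : N * N * N ∈ Subgroup.center E := by
      have h := central_of σ hk v xT hv F.i2
      rwa [gword_app, gword_app, hN] at h
    have h : (N * N * N)⁻¹ * e1 * (N * N * N) = e1 * ω * ω * ω := by
      rw [show (N * N * N)⁻¹ * e1 * (N * N * N) = N⁻¹ * (N⁻¹ * (N⁻¹ * e1 * N) * N) * N by group,
        hconj, conj_mul_central hωc, hconj, conj_mul_central hωc, conj_mul_central hωc, hconj]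
    rw [mul_assoc, comm_central hc e1, inv_mul_cancel_left, mul_assoc, mul_assoc] at h
    rw [mul_assoc]
    exact mul_eq_left.mp h.symm
  rw [hω2, one_mul] at hω3
  intro w hw
  by_cases h : w ∈ relList.take 27
  · exact h27 w h
  by_cases h' : w ∈ [r_u2, r_ua, r_uc, r_ue, relA, relB]
  · exact h4 w h'
  by_cases h'' : w ∈ [r_eus, relC, relD, relF]
  · exact h6 w h''
  by_cases h''' : w = r_tu
  · exact h''' ▸ hS r_tu (by simp [stage1])
  have : w = r_uv := by
    have hl := (by decide +kernel : relList.all (fun w => (relList.take 27).contains w ||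
      [r_u2, r_ua, r_uc, r_ue, relA, relB].contains w || [r_eus, relC, relD, relF].contains w ||
      (w == r_tu) || (w == r_uv)) = true)
    have := List.all_eq_true.1 hl w hw
    simp only [Bool.or_eq_true, List.contains_iff_mem, beq_iff_eq] at this
    tauto
  rw [this, hω, hω3]

end

/-- A central extension of the Thompson group has a section. -/
theorem exists_section (F : Facts) {E : Type} [Group E] (σ : E →* Cfsg.Spor.Th)
    (hs : Function.Surjective σ) (hk : σ.ker ≤ Subgroup.center E) :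
    ∃ τ : Cfsg.Spor.Th →* E, σ.comp τ = MonoidHom.id _ := by
  obtain ⟨v, hv, hS⟩ := exists_lift σ hs hk xT xT_big xT_rel
  have hrel := rels_one hk hv F hS
  have hlift : ∀ r ∈ coxRelators Th.edges ∪ {r | r ∈ Th.extra},
      FreeGroup.lift (fun x => v (ThH99.enc x / 2)) r = 1 := by
    rintro r (hr | hr)
    · exact absurd hr (by simp [coxRelators, coxNodes, Th.edges])
    · rw [lift_eq]
      exact hrel _ (relList_eq ▸ List.mem_map_of_mem hr)
  refine ⟨PresentedGroup.toGroup hlift, ?_⟩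
  apply MonoidHom.eq_of_eqOn_dense Th34.closure_gens
  rintro _ ⟨x, rfl⟩
  show σ (PresentedGroup.toGroup hlift (PresentedGroup.of x)) = Th34.g x
  rw [PresentedGroup.toGroup.of, hv, xT_enc]

end CfsgLib.ThCover66
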